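import Mathlib
import Cfsg.Prelude.Def_ClassicalGeometry

/-!
Symmetric groups acting by isometries on the heart of the permutation module over `ZMod 2`.
-/

set_option autoImplicit false

namespace Cfsg.Agent.HeartPerm25

open Matrix

section transfer

variable {R F : Type*} [Field R] [Field F] {ι : Type} [Fintype ι] [DecidableEq ι]

/-- Membership in the isometry group of a function. -/
theorem mem_isometry_iff {Q : (ι → F) → F} {g : Matrix.GeneralLinearGroup ι F} :
    g ∈ Cfsg.isometryGroup F Q ↔ ∀ x, Q ((g : Matrix ι ι F) *ᵥ x) = Q x :=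
  ⟨fun h x => h x x, fun h x _ => h x⟩

/-- Isometry groups transported along a field isomorphism. -/
def mapIso (σ : R ≃+* F) (q : (ι → R) → R) (q' : (ι → F) → F)
    (h : ∀ v, q' (fun i => σ (v i)) = σ (q v)) :
    ↥(Cfsg.isometryGroup R q) →* ↥(Cfsg.isometryGroup F q') :=
  ((Matrix.GeneralLinearGroup.map σ.toRingHom).comp (Cfsg.isometryGroup R q).subtype).codRestrict _
    (fun g => mem_isometry_iff.2 fun x => by
      obtain ⟨v, rfl⟩ : ∃ v : ι → R, (fun i => σ (v i)) = x :=
        ⟨fun i => σ.symm (x i), funext fun i => σ.apply_symm_apply _⟩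
      have e : ((Matrix.GeneralLinearGroup.map σ.toRingHom (g : Matrix.GeneralLinearGroup ι R) :
          Matrix.GeneralLinearGroup ι F) : Matrix ι ι F) *ᵥ (fun i => σ (v i)) =
          fun i => σ ((((g : Matrix.GeneralLinearGroup ι R) : Matrix ι ι R) *ᵥ v) i) := by
        funext i
        simp [Matrix.mulVec, dotProduct, map_sum]
      show q' _ = _
      rw [MonoidHom.comp_apply, Subgroup.coe_subtype, e, h, h, mem_isometry_iff.1 g.2])

theorem mapIso_injective (σ : R ≃+* F) (q : (ι → R) → R) (q' : (ι → F) → F)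
    (h : ∀ v, q' (fun i => σ (v i)) = σ (q v)) : Function.Injective (mapIso σ q q' h) := by
  intro a b hab
  refine Subtype.ext (Units.ext (Matrix.ext fun i j => σ.injective ?_))
  exact congrFun (congrFun (congrArg (fun g : ↥(Cfsg.isometryGroup F q') =>
    ((g : Matrix.GeneralLinearGroup ι F) : Matrix ι ι F)) hab) i) j

end transfer

variable {n : ℕ} {ι : Type} [Fintype ι] [DecidableEq ι]

/-- Half the weight, modulo two. -/
def halfWeight (x : Fin n → ZMod 2) : ZMod 2 :=
  (((Finset.univ.filter fun i => x i ≠ 0).card / 2 : ℕ) : ZMod 2)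

theorem halfWeight_perm (π : Equiv.Perm (Fin n)) (x : Fin n → ZMod 2) :
    halfWeight (fun i => x (π i)) = halfWeight x := by
  unfold halfWeight
  congr 2
  exact Finset.card_equiv π (fun i => by simp)

theorem exists_perm_hom (hn : 5 ≤ n) (E : Matrix (Fin n) ι (ZMod 2)) (P : Matrix ι (Fin n) (ZMod 2))
    (q : (ι → ZMod 2) → ZMod 2) (hPE : P * E = 1) (hP1 : P *ᵥ (fun _ => 1) = 0)
    (hsum : ∀ v, ∑ i, (E *ᵥ v) i = 0)
    (hEP : ∀ x, ∑ i, x i = 0 → E *ᵥ (P *ᵥ x) = x ∨ E *ᵥ (P *ᵥ x) = x + fun _ => 1)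
    (hq : ∀ x, ∑ i, x i = 0 → q (P *ᵥ x) = halfWeight x) :
    ∃ f : Equiv.Perm (Fin n) →* ↥(Cfsg.isometryGroup (ZMod 2) q), Function.Injective f := by
  let A : Equiv.Perm (Fin n) → (ι → ZMod 2) → (ι → ZMod 2) := fun π v => P *ᵥ fun i => (E *ᵥ v) (π⁻¹ i)
  let L : Equiv.Perm (Fin n) → ((ι → ZMod 2) →ₗ[ZMod 2] (ι → ZMod 2)) := fun π =>
    { toFun := A π
      map_add' := fun a b => by simp only [A, mulVec_add, Pi.add_apply]; rw [← mulVec_add]; rfl
      map_smul' := fun c a => by simp only [A, mulVec_smul, Pi.smul_apply, RingHom.id_apply]; rw [← mulVec_smul]; rfl }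
  have hfix : ∀ (π : Equiv.Perm (Fin n)) x, ∑ i, x i = 0 →
      P *ᵥ (fun i => (E *ᵥ (P *ᵥ x)) (π i)) = P *ᵥ fun i => x (π i) := by
    intro π x hx
    rcases hEP x hx with h | h <;> rw [h]
    show P *ᵥ ((fun i => x (π i)) + fun _ => 1) = _
    rw [mulVec_add, hP1, add_zero]
  have hsum' : ∀ (π : Equiv.Perm (Fin n)) v, ∑ i, (E *ᵥ v) (π i) = 0 := fun π v =>
    (Equiv.sum_comp π (E *ᵥ v)).trans (hsum v)
  have hmul : ∀ π τ v, A (π * τ) v = A π (A τ v) := by
    intro π τ v
    simp only [A]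
    rw [hfix π⁻¹ _ (hsum' τ⁻¹ v)]
    rfl
  have hone : ∀ v, A 1 v = v := fun v => by
    show P *ᵥ (E *ᵥ v) = v
    rw [mulVec_mulVec, hPE, one_mulVec]
  let u : Equiv.Perm (Fin n) → Matrix.GeneralLinearGroup ι (ZMod 2) := fun π =>
    ⟨LinearMap.toMatrix' (L π), LinearMap.toMatrix' (L π⁻¹),
      Matrix.ext_iff_mulVec.2 fun v => by
        rw [← mulVec_mulVec, LinearMap.toMatrix'_mulVec, LinearMap.toMatrix'_mulVec, one_mulVec]
        show A π (A π⁻¹ v) = v
        rw [← hmul, mul_inv_cancel, hone],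
      Matrix.ext_iff_mulVec.2 fun v => by
        rw [← mulVec_mulVec, LinearMap.toMatrix'_mulVec, LinearMap.toMatrix'_mulVec, one_mulVec]
        show A π⁻¹ (A π v) = v
        rw [← hmul, inv_mul_cancel, hone]⟩
  have hu : ∀ π v, (u π : Matrix ι ι (ZMod 2)) *ᵥ v = A π v := fun π v => LinearMap.toMatrix'_mulVec _ v
  let f : Equiv.Perm (Fin n) →* ↥(Cfsg.isometryGroup (ZMod 2) q) :=
    MonoidHom.mk' (fun π => ⟨u π, mem_isometry_iff.2 fun v => by
        rw [hu, hq _ (hsum' π⁻¹ v), halfWeight_perm, ← hq _ (hsum v), mulVec_mulVec, hPE, one_mulVec]⟩)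
      fun π τ => Subtype.ext (Units.ext (Matrix.ext_iff_mulVec.2 fun v => by
        show _ = ((u π : Matrix ι ι (ZMod 2)) * (u τ : Matrix ι ι (ZMod 2))) *ᵥ v
        rw [← mulVec_mulVec, hu, hu, hu]
        exact hmul π τ v))
  refine ⟨f, (injective_iff_map_eq_one f).2 fun π hπ => ?_⟩
  have hA : ∀ v, A π v = v := fun v => by
    have h := congrArg (fun g : ↥(Cfsg.isometryGroup (ZMod 2) q) =>
      ((g : Matrix.GeneralLinearGroup ι (ZMod 2)) : Matrix ι ι (ZMod 2)) *ᵥ v) hπ
    simpa [f, hu] using h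
  have key : ∀ x : Fin n → ZMod 2, ∑ i, x i = 0 →
      (fun i => x (π⁻¹ i)) = x ∨ (fun i => x (π⁻¹ i)) = x + fun _ => 1 := by
    intro x hx
    have h1 := hA (P *ᵥ x)
    simp only [A] at h1
    rw [hfix π⁻¹ x hx] at h1
    have h2 := congrArg (E *ᵥ ·) h1
    replace h2 : E *ᵥ (P *ᵥ fun i => x (π⁻¹ i)) = E *ᵥ (P *ᵥ x) := h2
    have hx' : ∑ i, x (π⁻¹ i) = 0 := (Equiv.sum_comp π⁻¹ x).trans hx
    have tw : ∀ a : ZMod 2, a + 1 + 1 = a := by decide
    rcases hEP x hx with a | a <;> rcases hEP _ hx' with b | b <;> rw [a, b] at h2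
    · exact .inl h2
    · right; funext i
      have := congrFun h2 i
      simp only [Pi.add_apply] at this ⊢
      rw [← this, tw]
    · exact .inr h2
    · left; funext i
      exact add_right_cancel (congrFun h2 i)
  have pair : ∀ i j, i ≠ j → π i = i ∨ π i = j := by
    intro i j hij
    have hx : ∑ k, (((Pi.single i 1 : Fin n → ZMod 2) + (Pi.single j 1 : Fin n → ZMod 2)) : Fin n → ZMod 2) k = 0 := by
      simp [Finset.sum_add_distrib]; decide
    rcases key _ hx with h | h
    · by_contra hc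
      push Not at hc
      have := congrFun h (π i)
      simp [hij, hc.1, hc.2] at this
    · obtain ⟨k, hk⟩ : ∃ k, k ∉ ({i, j, π i, π j} : Finset (Fin n)) := by
        by_contra hc
        push Not at hc
        have := (Finset.card_le_card (fun k _ => hc k : (Finset.univ : Finset (Fin n)) ⊆ {i, j, π i, π j})).trans
          Finset.card_le_four
        simp at this; omega
      simp only [Finset.mem_insert, Finset.mem_singleton, not_or] at hk
      have := congrFun h k
      have a1 : π⁻¹ k ≠ i := fun e => hk.2.2.1 (by rw [← e]; simp)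
      have a2 : π⁻¹ k ≠ j := fun e => hk.2.2.2 (by rw [← e]; simp)
      simp only [Pi.add_apply] at this
      rw [Pi.single_eq_of_ne a1, Pi.single_eq_of_ne a2, Pi.single_eq_of_ne hk.1, Pi.single_eq_of_ne hk.2.1] at this
      simp at this
  refine Equiv.ext fun i => ?_
  obtain ⟨j, k, hji, hki, hjk⟩ : ∃ j k, j ≠ i ∧ k ≠ i ∧ j ≠ k := by
    obtain ⟨j, hj⟩ := Fintype.exists_ne_of_one_lt_card (by simp; omega) i
    obtain ⟨k, hk⟩ : ∃ k, k ∉ ({i, j} : Finset (Fin n)) := by
      by_contra hc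
      push Not at hc
      have := (Finset.card_le_card (fun k _ => hc k : (Finset.univ : Finset (Fin n)) ⊆ {i, j})).trans
        Finset.card_le_two
      simp at this; omega
    simp only [Finset.mem_insert, Finset.mem_singleton, not_or] at hk
    exact ⟨j, k, hj, hk.1, (Ne.symm hk.2)⟩
  rcases pair i j hji.symm with h | h
  · exact h
  · exact (pair i k hki.symm).resolve_right fun h' => hjk (h.symm.trans h')

end Cfsg.Agent.HeartPerm25
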