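import Mathlib
import Cfsg.Agent.HeartPerm25.Basic

/-! The models: `S_5` in `O⁻_4(2)` and `S_8` in `O⁺_6(2)`. -/

set_option autoImplicit false
set_option maxRecDepth 100000

namespace Cfsg.Agent.HeartPerm25

open Matrix

/-- Characteristic vector of a list. -/
def chi {n : ℕ} (l : List (Fin n)) : Fin n → ZMod 2 := fun i => if i ∈ l then 1 else 0

/-- Basis vectors in `n = 5`. -/
def vecFive : (Fin 1 ⊕ Fin 1) ⊕ Fin 2 → Fin 5 → ZMod 2 :=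
  Sum.elim (Sum.elim (fun _ => chi [0, 1, 2, 3]) fun _ => chi [1, 2, 3, 4]) ![chi [1, 2], chi [2, 3]]

/-- Dual vectors in `n = 5`. -/
def dualFive : (Fin 1 ⊕ Fin 1) ⊕ Fin 2 → Fin 5 → ZMod 2 :=
  Sum.elim (Sum.elim (fun _ => chi [1, 2, 3, 4]) fun _ => chi [0, 1, 2, 3]) ![chi [2, 3], chi [1, 2]]

/-- Basis vectors in `n = 8`. -/
def vecEight : Fin 3 ⊕ Fin 3 → Fin 8 → ZMod 2 :=
  Sum.elim ![chi [0, 1, 2, 3], chi [0, 3, 4, 5], chi [2, 3, 4, 6]]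
    ![chi [0, 1, 2, 4], chi [1, 3, 4, 5], chi [0, 1, 5, 6]]

/-- Dual vectors in `n = 8`. -/
def dualEight : Fin 3 ⊕ Fin 3 → Fin 8 → ZMod 2 :=
  Sum.elim ![chi [0, 1, 2, 4], chi [1, 3, 4, 5], chi [0, 1, 5, 6]]
    ![chi [0, 1, 2, 3], chi [0, 3, 4, 5], chi [2, 3, 4, 6]]

theorem exists_hom_five : ∃ f : Equiv.Perm (Fin 5) →*
    ↥(Cfsg.isometryGroup (ZMod 2) (Cfsg.quadFormMinus 1 (ZMod 2) 1 1)), Function.Injective f := by
  refine exists_perm_hom (le_refl 5) (Matrix.of fun i c => vecFive c i) (Matrix.of dualFive)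
    (Cfsg.quadFormMinus 1 (ZMod 2) 1 1) ?_ ?_ ?_ ?_ ?_ <;> decide +kernel

theorem exists_hom_eight : ∃ f : Equiv.Perm (Fin 8) →*
    ↥(Cfsg.isometryGroup (ZMod 2) (Cfsg.quadFormPlus 3 (ZMod 2))), Function.Injective f := by
  refine exists_perm_hom (by norm_num) (Matrix.of fun i c => vecEight c i) (Matrix.of dualEight)
    (Cfsg.quadFormPlus 3 (ZMod 2)) ?_ ?_ ?_ ?_ ?_ <;> decide +kernel

end Cfsg.Agent.HeartPerm25
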