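import Mathlib
import Cfsg.Agent.HeartPerm25.Basic

/-!
`S_{4(k+1)}` acting on the heart of the permutation module: symplectic families of even sets,
with the values of the half weight, give the type of the invariant quadratic form.
-/

set_option autoImplicit false

namespace Cfsg.Agent.HeartPerm25.Family

open Matrix

variable {n : ℕ}

theorem f2_cases (x : ZMod 2) : x = 0 ∨ x = 1 := by revert x; decide

theorem f2_sq (x : ZMod 2) : x * x = x := by revert x; decide

/-- The support. -/
def supp (x : Fin n → ZMod 2) : Finset (Fin n) := Finset.univ.filter fun i => x i ≠ 0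

theorem halfWeight_eq (x : Fin n → ZMod 2) : halfWeight x = (((supp x).card / 2 : ℕ) : ZMod 2) := rfl

theorem dot_eq_card (u w : Fin n → ZMod 2) : u ⬝ᵥ w = (((supp u ∩ supp w).card : ℕ) : ZMod 2) := by
  rw [dotProduct, show supp u ∩ supp w = Finset.univ.filter (fun i => u i ≠ 0 ∧ w i ≠ 0) from
    (Finset.filter_and _ _ _).symm, Finset.natCast_card_filter]
  refine Finset.sum_congr rfl fun i _ => ?_
  generalize u i = a, w i = b
  revert a b; decide

theorem sum_eq_card (u : Fin n → ZMod 2) : ∑ i, u i = (((supp u).card : ℕ) : ZMod 2) := by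
  rw [supp, Finset.natCast_card_filter]
  refine Finset.sum_congr rfl fun i _ => ?_
  generalize u i = a
  revert a; decide

theorem dot_self (u : Fin n → ZMod 2) : u ⬝ᵥ u = ∑ i, u i :=
  Finset.sum_congr rfl fun _ _ => f2_sq _

theorem supp_add (u w : Fin n → ZMod 2) :
    supp (u + w) = (supp u ∪ supp w) \ (supp u ∩ supp w) := by
  ext i
  simp only [supp, Finset.mem_filter, Finset.mem_univ, true_and, Finset.mem_sdiff, Finset.mem_union,
    Finset.mem_inter, Pi.add_apply]
  generalize u i = a, w i = b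
  revert a b; decide

theorem halfWeight_add {u w : Fin n → ZMod 2} (hu : ∑ i, u i = 0) (hw : ∑ i, w i = 0) :
    halfWeight (u + w) = halfWeight u + halfWeight w + u ⬝ᵥ w := by
  rw [sum_eq_card, ZMod.natCast_eq_zero_iff_even] at hu hw
  rw [halfWeight_eq, halfWeight_eq, halfWeight_eq, dot_eq_card, supp_add, ← Nat.cast_add, ← Nat.cast_add,
    ZMod.natCast_eq_natCast_iff', Finset.card_sdiff_of_subset (Finset.inter_subset_union)]
  have h := Finset.card_union_add_card_inter (supp u) (supp w)
  have h1 := Finset.card_le_card (Finset.inter_subset_left (s₁ := supp u) (s₂ := supp w))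
  have h2 := Finset.card_le_card (Finset.inter_subset_right (s₁ := supp u) (s₂ := supp w))
  obtain ⟨a, ha⟩ := hu
  obtain ⟨b, hb⟩ := hw
  omega

theorem halfWeight_zero : halfWeight (0 : Fin n → ZMod 2) = 0 := by
  simp [halfWeight]

theorem halfWeight_add_one (hn : 4 ∣ n) {x : Fin n → ZMod 2} (hx : ∑ i, x i = 0) :
    halfWeight (x + fun _ => 1) = halfWeight x := by
  obtain ⟨l, rfl⟩ := hn
  have h1 : ∑ _i : Fin (4 * l), (1 : ZMod 2) = 0 := by
    simp only [Finset.sum_const, Finset.card_univ, Fintype.card_fin, nsmul_eq_mul, mul_one]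
    rw [ZMod.natCast_eq_zero_iff_even]
    exact ⟨2 * l, by ring⟩
  have h2 : halfWeight (fun _ : Fin (4 * l) => (1 : ZMod 2)) = 0 := by
    simp only [halfWeight, ne_eq, one_ne_zero, not_false_eq_true, Finset.filter_true, Finset.card_univ,
      Fintype.card_fin]
    rw [ZMod.natCast_eq_zero_iff_even]
    exact ⟨l, by omega⟩
  rw [halfWeight_add hx h1, h2]
  have h3 : x ⬝ᵥ (fun _ => (1 : ZMod 2)) = ∑ i, x i := by simp [dotProduct]
  rw [h3, hx, add_zero, add_zero]

/-- A symplectic family of even sets, with half weight `c i` on the two members of the pair `i`. -/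
structure IsFam {I : Type} [DecidableEq I] (w : I ⊕ I → Fin n → ZMod 2) (c : I → ZMod 2) : Prop where
  dot : ∀ x y, w x ⬝ᵥ w y = if x.swap = y then 1 else 0
  wl : ∀ i, halfWeight (w (.inl i)) = c i
  wr : ∀ i, halfWeight (w (.inr i)) = c i

variable {I : Type} [Fintype I] [DecidableEq I] {w : I ⊕ I → Fin n → ZMod 2} {c : I → ZMod 2}

theorem IsFam.even (h : IsFam w c) (x : I ⊕ I) : ∑ i, w x i = 0 := by
  rw [← dot_self, h.dot]
  rcases x with i | i <;> simp

theorem IsFam.reindex (h : IsFam w c) {J : Type} [DecidableEq J] (e : J ≃ I) :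
    IsFam (fun x : J ⊕ J => w (x.map e e)) (fun j => c (e j)) :=
  ⟨fun x y => by
    rw [h.dot]
    rcases x with i | i <;> rcases y with j | j <;> simp [e.injective.eq_iff],
    fun i => h.wl _, fun i => h.wr _⟩

theorem even_combination (h : IsFam w c) (v : I ⊕ I → ZMod 2) (s : Finset I) :
    ∑ p, (∑ i ∈ s, (v (.inl i) • w (.inl i) + v (.inr i) • w (.inr i))) p = 0 := by
  simp only [Finset.sum_apply, Pi.add_apply, Pi.smul_apply, smul_eq_mul]
  rw [Finset.sum_comm]
  refine Finset.sum_eq_zero fun i _ => ?_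
  rw [Finset.sum_add_distrib, ← Finset.mul_sum, ← Finset.mul_sum, h.even, h.even]
  simp

theorem halfWeight_combination (h : IsFam w c) (v : I ⊕ I → ZMod 2) : ∀ s : Finset I,
    halfWeight (∑ i ∈ s, (v (.inl i) • w (.inl i) + v (.inr i) • w (.inr i))) =
      ∑ i ∈ s, (c i * v (.inl i) + c i * v (.inr i) + v (.inl i) * v (.inr i)) := by
  intro s
  induction s using Finset.induction_on with
  | empty => simp [halfWeight_zero]
  | insert a s has ih =>
    rw [Finset.sum_insert has, Finset.sum_insert has]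
    have hsm : ∀ (t : ZMod 2) x, ∑ p, (t • w x) p = 0 := fun t x => by
      simp only [Pi.smul_apply, smul_eq_mul, ← Finset.mul_sum, h.even, mul_zero]
    have hhw : ∀ (t : ZMod 2) x, halfWeight (t • w x) = t * halfWeight (w x) := fun t x => by
      rcases f2_cases t with rfl | rfl
      · simp [halfWeight_zero]
      · simp
    have h2 : ∑ p, (v (.inl a) • w (.inl a) + v (.inr a) • w (.inr a)) p = 0 := by
      simp only [Pi.add_apply, Finset.sum_add_distrib, hsm, add_zero]
    rw [halfWeight_add h2 (even_combination h v s), halfWeight_add (hsm _ _) (hsm _ _), ih, hhw, hhw,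
      h.wl, h.wr]
    have h3 : (v (.inl a) • w (.inl a)) ⬝ᵥ (v (.inr a) • w (.inr a)) = v (.inl a) * v (.inr a) := by
      simp [h.dot, mul_comm]
    have h4 : (v (.inl a) • w (.inl a) + v (.inr a) • w (.inr a)) ⬝ᵥ
        (∑ i ∈ s, (v (.inl i) • w (.inl i) + v (.inr i) • w (.inr i))) = 0 := by
      rw [dotProduct_sum]
      refine Finset.sum_eq_zero fun i hi => ?_
      have hai : a ≠ i := fun e => has (e ▸ hi)
      simp [h.dot, hai, add_dotProduct, dotProduct_add]
    rw [h3, h4]
    ring

/-- A family gives an embedding into the isometry group of its form. -/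
theorem exists_hom_of_fam (hn : 5 ≤ n) (h4 : 4 ∣ n) (h : IsFam w c)
    (hfull : ∀ r : Fin n → ZMod 2, ∑ i, r i = 0 → (∀ x, w x ⬝ᵥ r = 0) → r = 0 ∨ r = fun _ => 1)
    {ι : Type} [Fintype ι] [DecidableEq ι] (σ : ι ≃ I ⊕ I) (q : (ι → ZMod 2) → ZMod 2)
    (hq : ∀ v : ι → ZMod 2, q v = ∑ i, (c i * v (σ.symm (.inl i)) + c i * v (σ.symm (.inr i)) +
      v (σ.symm (.inl i)) * v (σ.symm (.inr i)))) :
    ∃ f : Equiv.Perm (Fin n) →* ↥(Cfsg.isometryGroup (ZMod 2) q), Function.Injective f := by
  classical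
  let E : Matrix (Fin n) ι (ZMod 2) := Matrix.of fun p j => w (σ j) p
  let P : Matrix ι (Fin n) (ZMod 2) := Matrix.of fun j p => w (σ j).swap p
  have hE : ∀ v : ι → ZMod 2, E *ᵥ v =
      ∑ i, (v (σ.symm (.inl i)) • w (.inl i) + v (σ.symm (.inr i)) • w (.inr i)) := fun v => by
    funext p
    rw [show (E *ᵥ v) p = ∑ j, w (σ j) p * v j from rfl,
      ← Equiv.sum_comp σ.symm fun j => w (σ j) p * v j, Fintype.sum_sum_type, Finset.sum_apply,
      ← Finset.sum_add_distrib]
    refine Finset.sum_congr rfl fun i _ => ?_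
    simp [mul_comm]
  have hP : ∀ (x : Fin n → ZMod 2) j, (P *ᵥ x) j = w (σ j).swap ⬝ᵥ x := fun x j => rfl
  have hsum : ∀ v, ∑ i, (E *ᵥ v) i = 0 := fun v => by
    rw [hE]; exact even_combination h (fun x => v (σ.symm x)) Finset.univ
  have hPE : P * E = 1 := by
    ext j l
    rw [show (P * E) j l = w (σ j).swap ⬝ᵥ w (σ l) from rfl, h.dot, Sum.swap_swap, Matrix.one_apply]
    simp [σ.injective.eq_iff]
  have hEP : ∀ x, ∑ i, x i = 0 → E *ᵥ (P *ᵥ x) = x ∨ E *ᵥ (P *ᵥ x) = x + fun _ => 1 := by
    intro x hx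
    have h0 : ∀ y, w y ⬝ᵥ (E *ᵥ (P *ᵥ x) + x) = 0 := fun y => by
      have h1 : (P *ᵥ (E *ᵥ (P *ᵥ x))) = P *ᵥ x := by rw [mulVec_mulVec, hPE, one_mulVec]
      have h2 := congrFun h1 (σ.symm y.swap)
      rw [hP, hP, Equiv.apply_symm_apply, Sum.swap_swap] at h2
      rw [dotProduct_add, h2]
      generalize w y ⬝ᵥ x = a
      revert a; decide
    have hev : ∑ i, (E *ᵥ (P *ᵥ x) + x) i = 0 := by
      simp only [Pi.add_apply, Finset.sum_add_distrib, hsum, hx, add_zero]
    rcases hfull _ hev h0 with h' | h'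
    · left
      funext p
      have := congrFun h' p
      simp only [Pi.add_apply, Pi.zero_apply] at this
      generalize (E *ᵥ (P *ᵥ x)) p = a, x p = b at this ⊢
      revert this; revert a b; decide
    · right
      funext p
      have := congrFun h' p
      simp only [Pi.add_apply] at this ⊢
      generalize (E *ᵥ (P *ᵥ x)) p = a, x p = b at this ⊢
      revert this; revert a b; decide
  refine exists_perm_hom hn E P q hPE ?_ hsum hEP fun x hx => ?_
  · funext j
    rw [hP]
    simp [dotProduct, h.even]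
  · rw [hq, ← halfWeight_combination h (fun y => (P *ᵥ x) (σ.symm y)) Finset.univ, ← hE]
    rcases hEP x hx with h' | h' <;> rw [h']
    exact halfWeight_add_one h4 hx

/-- Two anisotropic planes are replaced by two hyperbolic ones. -/
theorem exists_reduce (h : IsFam w c) {i j : I} (hij : i ≠ j) (hi : c i = 1) (hj : c j = 1) :
    ∃ (w' : I ⊕ I → Fin n → ZMod 2),
      IsFam w' (Function.update (Function.update c i 0) j 0) ∧
      ∀ r : Fin n → ZMod 2, (∀ x, w' x ⬝ᵥ r = 0) → ∀ x, w x ⬝ᵥ r = 0 := by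
  set a := w (.inl i) with ha
  set b := w (.inr i) with hb
  set u := w (.inl j) with hu
  set d := w (.inr j) with hd
  let w' : I ⊕ I → Fin n → ZMod 2 := Sum.elim
    (fun l => if l = i then a + u else if l = j then a + b + d else w (.inl l))
    (fun l => if l = i then b + u else if l = j then a + b + u + d else w (.inr l))
  have hev : ∀ p q, ∑ t, (w p + w q) t = 0 := fun p q => by
    simp [Finset.sum_add_distrib, h.even]
  have hev3 : ∀ p q s, ∑ t, (w p + w q + w s) t = 0 := fun p q s => by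
    simp [Finset.sum_add_distrib, h.even]
  have t1 : (1 : ZMod 2) + 1 = 0 := by decide
  refine ⟨w', ⟨fun x y => ?_, fun l => ?_, fun l => ?_⟩, fun r hr x => ?_⟩
  · have hji := hij.symm
    have cases : ∀ l : I, l = i ∧ l ≠ j ∨ l = j ∧ l ≠ i ∨ l ≠ i ∧ l ≠ j := fun l => by
      rcases eq_or_ne l i with e | e
      · exact Or.inl ⟨e, e ▸ hij⟩
      rcases eq_or_ne l j with e' | e'
      · exact Or.inr (Or.inl ⟨e', e⟩)
      · exact Or.inr (Or.inr ⟨e, e'⟩)
    have hji := hij.symm
    rcases x with l | l <;> rcases y with m | m <;>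
      rcases cases l with ⟨hl, hl'⟩ | ⟨hl, hl'⟩ | ⟨hl, hl'⟩ <;>
      rcases cases m with ⟨hm, hm'⟩ | ⟨hm, hm'⟩ | ⟨hm, hm'⟩ <;>
      simp [w', a, b, u, d, add_dotProduct, dotProduct_add, h.dot, hl, hl', hm, hm', hij, hji, t1,
        Ne.symm hl', Ne.symm hm'] <;>
      simp_all [eq_comm]
  · rcases eq_or_ne l i with rfl | hli
    · simp only [w', Sum.elim_inl, if_true, Function.update_of_ne hij, Function.update_self]
      rw [ha, hu, halfWeight_add (h.even _) (h.even _), h.wl, h.wl, hi, hj, h.dot]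
      simp [t1]
    rcases eq_or_ne l j with rfl | hlj
    · simp only [w', Sum.elim_inl, if_neg hli, if_true, Function.update_self]
      rw [ha, hb, hd, halfWeight_add (hev _ _) (h.even _), halfWeight_add (h.even _) (h.even _),
        h.wl, h.wr, h.wr, hi, hj, add_dotProduct, h.dot, h.dot, h.dot]
      simp [hli, Ne.symm hli, t1]
    · simp only [w', Sum.elim_inl, if_neg hli, if_neg hlj, Function.update_of_ne hlj,
        Function.update_of_ne hli, h.wl]
  · rcases eq_or_ne l i with rfl | hli
    · simp only [w', Sum.elim_inr, if_true, Function.update_of_ne hij, Function.update_self]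
      rw [hb, hu, halfWeight_add (h.even _) (h.even _), h.wl, h.wr, hi, hj, h.dot]
      simp [hij, t1]
    rcases eq_or_ne l j with rfl | hlj
    · simp only [w', Sum.elim_inr, if_neg hli, if_true, Function.update_self]
      rw [ha, hb, hu, hd, halfWeight_add (hev3 _ _ _) (h.even _), halfWeight_add (hev _ _) (h.even _),
        halfWeight_add (h.even _) (h.even _), h.wl, h.wl, h.wr, h.wr, hi, hj, add_dotProduct,
        add_dotProduct, add_dotProduct, h.dot, h.dot, h.dot, h.dot, h.dot, h.dot]
      simp [hli, Ne.symm hli, t1]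
    · simp only [w', Sum.elim_inr, if_neg hli, if_neg hlj, Function.update_of_ne hlj,
        Function.update_of_ne hli, h.wr]
  · have h1 := hr (.inl i)
    have h2 := hr (.inr i)
    have h3 := hr (.inl j)
    have h4 := hr (.inr j)
    simp only [w', Sum.elim_inl, Sum.elim_inr, if_true, if_neg hij.symm, add_dotProduct] at h1 h2 h3 h4
    have key : ∀ A B U D : ZMod 2, A + U = 0 → B + U = 0 → A + B + D = 0 → A + B + U + D = 0 →
        A = 0 ∧ B = 0 ∧ U = 0 ∧ D = 0 := by decide
    obtain ⟨k1, k2, k3, k4⟩ := key _ _ _ _ h1 h2 h3 h4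
    rcases x with l | l <;> rcases eq_or_ne l i with rfl | hli
    · exact k1
    · rcases eq_or_ne l j with rfl | hlj
      · exact k3
      · simpa [w', hli, hlj] using hr (.inl l)
    · exact k2
    · rcases eq_or_ne l j with rfl | hlj
      · exact k4
      · simpa [w', hli, hlj] using hr (.inr l)

/-- At most one anisotropic plane is needed. -/
theorem exists_normal_family : ∀ (N : ℕ) (w : I ⊕ I → Fin n → ZMod 2) (c : I → ZMod 2), IsFam w c →
    (∀ r : Fin n → ZMod 2, ∑ i, r i = 0 → (∀ x, w x ⬝ᵥ r = 0) → r = 0 ∨ r = fun _ => 1) →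
    (Finset.univ.filter fun i => c i = 1).card = N →
    ∃ (w' : I ⊕ I → Fin n → ZMod 2) (c' : I → ZMod 2), IsFam w' c' ∧
      (∀ r : Fin n → ZMod 2, ∑ i, r i = 0 → (∀ x, w' x ⬝ᵥ r = 0) → r = 0 ∨ r = fun _ => 1) ∧
      (Finset.univ.filter fun i => c' i = 1).card = N % 2 := by
  intro N
  induction N using Nat.strong_induction_on with
  | _ N ih =>
    intro w c h hfull hN
    rcases Nat.lt_or_ge N 2 with hlt | hge
    · exact ⟨w, c, h, hfull, by rw [hN, Nat.mod_eq_of_lt hlt]⟩
    obtain ⟨i, hi, j, hj, hij⟩ := Finset.one_lt_card.1 (show 1 < (Finset.univ.filter fun i => c i = 1).card by omega)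
    simp only [Finset.mem_filter, Finset.mem_univ, true_and] at hi hj
    obtain ⟨w', hw', hfull'⟩ := exists_reduce h hij hi hj
    have hcard : (Finset.univ.filter fun l => Function.update (Function.update c i 0) j 0 l = 1).card = N - 2 := by
      rw [show (Finset.univ.filter fun l => Function.update (Function.update c i 0) j 0 l = 1) =
        ((Finset.univ.filter fun l => c l = 1).erase i).erase j from ?_,
        Finset.card_erase_of_mem (by simp [hj, hij.symm]), Finset.card_erase_of_mem (by simp [hi]), hN]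
      · omega
      ext l
      rcases eq_or_ne l j with rfl | hlj
      · simp
      rcases eq_or_ne l i with rfl | hli
      · simp [hlj]
      · simp [hlj, hli]
    obtain ⟨w'', c'', a1, a2, a3⟩ := ih (N - 2) (by omega) w' _ hw'
      (fun r hr hd => hfull r hr (hfull' r hd)) hcard
    exact ⟨w'', c'', a1, a2, by rw [a3]; omega⟩

/-- The interval `[a, b)`. -/
def iv (n a b : ℕ) : Fin n → ZMod 2 := fun p => if a ≤ p.val ∧ p.val < b then 1 else 0

theorem card_interval {a b : ℕ} (hb : b ≤ n) :
    (Finset.univ.filter fun p : Fin n => a ≤ p.val ∧ p.val < b).card = b - a := by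
  rw [← Nat.card_Ico a b, ← Finset.card_map Fin.valEmbedding]
  congr 1
  ext p
  simp only [Finset.mem_map, Finset.mem_filter, Finset.mem_univ, true_and, Fin.valEmbedding_apply,
    Finset.mem_Ico]
  constructor
  · rintro ⟨q, hq, rfl⟩; exact hq
  · intro hp; exact ⟨⟨p, by omega⟩, hp, rfl⟩

theorem supp_iv (a b : ℕ) : supp (iv n a b) = Finset.univ.filter fun p : Fin n => a ≤ p.val ∧ p.val < b := by
  ext p; simp [supp, iv]

theorem dot_iv {a b a' b' : ℕ} (hb : b ≤ n) :
    iv n a b ⬝ᵥ iv n a' b' = ((min b b' - max a a' : ℕ) : ZMod 2) := by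
  rw [dot_eq_card, supp_iv, supp_iv, ← card_interval (n := n) (a := max a a') (b := min b b') (le_trans (min_le_left _ _) hb)]
  congr 2
  ext p
  simp
  omega

theorem halfWeight_iv {a b : ℕ} (hb : b ≤ n) : halfWeight (iv n a b) = (((b - a) / 2 : ℕ) : ZMod 2) := by
  rw [halfWeight_eq, supp_iv, card_interval hb]

theorem iv_dot {a b : ℕ} (r : Fin n → ZMod 2) :
    iv n a b ⬝ᵥ r = ∑ p ∈ Finset.univ.filter (fun p : Fin n => a ≤ p.val ∧ p.val < b), r p := by
  rw [Finset.sum_filter, dotProduct]
  refine Finset.sum_congr rfl fun p _ => ?_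
  simp [iv]

/-- The starting family in degree `2 m + 2`. -/
theorem exists_start (m : ℕ) : ∃ (w : Fin m ⊕ Fin m → Fin (2 * m + 2) → ZMod 2),
    IsFam w (fun i => ((i.val + 1 : ℕ) : ZMod 2)) ∧
    ∀ r : Fin (2 * m + 2) → ZMod 2, ∑ i, r i = 0 → (∀ x, w x ⬝ᵥ r = 0) → r = 0 ∨ r = fun _ => 1 := by
  set n := 2 * m + 2
  let A : Fin m → Fin n → ZMod 2 := fun i => iv n (2 * i.val + 1) (2 * i.val + 3)
  let B : Fin m → Fin n → ZMod 2 := fun i => iv n 0 (2 * i.val + 2)
  let e : Fin m → ZMod 2 := fun i => ((i.val : ℕ) : ZMod 2)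
  let w : Fin m ⊕ Fin m → Fin n → ZMod 2 := Sum.elim (fun i => A i + e i • B i) B
  have hAA : ∀ i j, A i ⬝ᵥ A j = 0 := fun i j => by
    rw [dot_iv (by omega), ZMod.natCast_eq_zero_iff_even, Nat.even_iff]
    rcases lt_trichotomy i.val j.val with h | h | h <;> omega
  have hBB : ∀ i j, B i ⬝ᵥ B j = 0 := fun i j => by
    rw [dot_iv (by omega), ZMod.natCast_eq_zero_iff_even, Nat.even_iff]
    rcases lt_trichotomy i.val j.val with h | h | h <;> omega
  have hAB : ∀ i j, A i ⬝ᵥ B j = if i = j then 1 else 0 := fun i j => by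
    rw [dot_iv (by omega)]
    split_ifs with h
    · subst h
      rw [show min (2 * i.val + 3) (2 * i.val + 2) - max (2 * i.val + 1) 0 = 1 by omega, Nat.cast_one]
    · have : i.val ≠ j.val := fun e => h (Fin.ext e)
      rw [ZMod.natCast_eq_zero_iff_even, Nat.even_iff]
      omega
  have hBA : ∀ i j, B i ⬝ᵥ A j = if i = j then 1 else 0 := fun i j => by
    rw [dotProduct_comm, hAB]
    simp [eq_comm]
  refine ⟨w, ⟨fun x y => ?_, fun i => ?_, fun i => ?_⟩, ?_⟩
  · rcases x with i | i <;> rcases y with j | j <;>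
      simp [w, add_dotProduct, dotProduct_add, hAA, hBB, hAB, hBA]
    rcases eq_or_ne i j with rfl | h
    · simp only [if_true, mul_one]
      generalize e i = t
      revert t; decide
    · simp [h, h.symm]
  · have hA : halfWeight (A i) = 1 := by
      rw [halfWeight_iv (by omega), show (2 * i.val + 3 - (2 * i.val + 1)) / 2 = 1 by omega, Nat.cast_one]
    have hB : halfWeight (B i) = ((i.val + 1 : ℕ) : ZMod 2) := by
      rw [halfWeight_iv (by omega), show (2 * i.val + 2 - 0) / 2 = i.val + 1 by omega]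
    have hev : ∀ t : ZMod 2, ∑ p, (t • B i) p = 0 := fun t => by
      simp only [Pi.smul_apply, smul_eq_mul, ← Finset.mul_sum, ← dot_self, hBB, mul_zero]
    show halfWeight (A i + e i • B i) = _
    rw [halfWeight_add (by rw [← dot_self, hAA]) (hev _), hA, dotProduct_smul, hAB, if_pos rfl]
    rcases f2_cases (e i) with h | h <;> simp only [e] at h ⊢ <;> rw [h]
    · simp [halfWeight_zero, h]
    · rw [one_smul, hB, Nat.cast_add, h]; decide
  · show halfWeight (B i) = _
    rw [halfWeight_iv (by omega), show (2 * i.val + 2 - 0) / 2 = i.val + 1 by omega]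
  · intro r hr hd
    have hB0 : ∀ i, B i ⬝ᵥ r = 0 := fun i => hd (.inr i)
    have hA0 : ∀ i, A i ⬝ᵥ r = 0 := fun i => by
      simpa [w, add_dotProduct, hB0 i] using hd (.inl i)
    let R : ℕ → ZMod 2 := fun p => if h : p < n then r ⟨p, h⟩ else 0
    have hR : ∀ p : Fin n, r p = R p.val := fun p => by simp [R]
    have hval : ∀ a b, b ≤ n → iv n a b ⬝ᵥ r = ∑ p ∈ Finset.Ico a b, R p := fun a b hb => by
      rw [iv_dot]
      refine Finset.sum_nbij (fun p => p.val) (fun p hp => by simpa using hp)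
        (fun p _ q _ => Fin.ext) (fun p hp => ?_) fun p _ => hR p
      simp at hp ⊢
      exact ⟨⟨p, by omega⟩, hp, rfl⟩
    have key : ∀ a b : ZMod 2, a + b = 0 → b = a := by decide
    have hconst : ∀ i, i ≤ m → (∀ p, p ≤ 2 * i → R p = R 0) ∧ ∑ p ∈ Finset.range (2 * i), R p = 0 := by
      intro i
      induction i with
      | zero => intro _; exact ⟨fun p hp => by rw [Nat.le_zero.1 hp], by simp⟩
      | succ i ih =>
        intro hi
        obtain ⟨h1, h2⟩ := ih (by omega)
        have hb := hB0 ⟨i, by omega⟩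
        have ha := hA0 ⟨i, by omega⟩
        rw [show B ⟨i, _⟩ = iv n 0 (2 * i + 2) from rfl, hval _ _ (by omega), ← Finset.range_eq_Ico] at hb
        rw [show A ⟨i, _⟩ = iv n (2 * i + 1) (2 * i + 3) from rfl, hval _ _ (by omega)] at ha
        have hb' := hb
        rw [Finset.sum_range_succ, Finset.sum_range_succ, h2, zero_add] at hb
        rw [show Finset.Ico (2 * i + 1) (2 * i + 3) = {2 * i + 1, 2 * i + 2} by
          ext p; simp; omega, Finset.sum_pair (by omega)] at ha
        refine ⟨fun p hp => ?_, by rw [mul_add, mul_one]; exact hb'⟩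
        rcases Nat.lt_or_ge p (2 * i + 1) with h | h
        · exact h1 p (by omega)
        have e1 := key _ _ hb
        rw [h1 _ le_rfl] at e1
        rcases eq_or_ne p (2 * i + 1) with rfl | h'
        · exact e1
        · obtain rfl : p = 2 * i + 2 := by omega
          rw [key _ _ ha, e1]
    obtain ⟨h1, h2⟩ := hconst m le_rfl
    have htot : ∑ p ∈ Finset.range n, R p = 0 := by
      rw [← Fin.sum_univ_eq_sum_range, ← hr]
      exact Finset.sum_congr rfl fun p _ => (hR p).symm
    rw [show n = 2 * m + 1 + 1 from rfl, Finset.sum_range_succ, Finset.sum_range_succ, h2, zero_add] at htot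
    have e1 := key _ _ htot
    rw [h1 _ le_rfl] at e1
    have hall : ∀ p : Fin n, r p = R 0 := fun p => by
      rw [hR]
      rcases Nat.lt_or_ge p.val (2 * m + 1) with h | h
      · exact h1 _ (by omega)
      · rw [show p.val = 2 * m + 1 by omega, e1]
    rcases f2_cases (R 0) with h | h
    · exact Or.inl (funext fun p => by rw [hall, h]; rfl)
    · exact Or.inr (funext fun p => by rw [hall, h])

theorem count_start (k : ℕ) :
    (Finset.univ.filter fun i : Fin (2 * k + 1) => ((i.val + 1 : ℕ) : ZMod 2) = 1).card = k + 1 := by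
  rw [← Fintype.card_fin (k + 1), ← Finset.card_univ]
  refine (Finset.card_bij (fun (t : Fin (k + 1)) _ => (⟨2 * t.val, by omega⟩ : Fin (2 * k + 1))) ?_ ?_ ?_).symm
  · intro t _
    simp only [Finset.mem_filter, Finset.mem_univ, true_and]
    rw [← Nat.cast_one (R := ZMod 2), ZMod.natCast_eq_natCast_iff']
    omega
  · intro s _ t _ h
    simp [Fin.ext_iff] at h
    exact Fin.ext h
  · intro i hi
    simp only [Finset.mem_filter, Finset.mem_univ, true_and] at hi
    rw [← Nat.cast_one (R := ZMod 2), ZMod.natCast_eq_natCast_iff'] at hi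
    exact ⟨⟨i.val / 2, by omega⟩, Finset.mem_univ _, Fin.ext (by simp; omega)⟩

theorem exists_hom_plus {k : ℕ} (hk : 1 ≤ k) (ho : Odd k) :
    ∃ φ : Equiv.Perm (Fin (2 * (2 * k + 1) + 2)) →*
      ↥(Cfsg.isometryGroup (ZMod 2) (Cfsg.quadFormPlus (2 * k + 1) (ZMod 2))), Function.Injective φ := by
  obtain ⟨w, hw, hfull⟩ := exists_start (2 * k + 1)
  obtain ⟨w', c', h1, h2, h3⟩ := exists_normal_family _ w _ hw hfull (count_start k)
  have hc : ∀ i, c' i = 0 := fun i => (f2_cases _).resolve_right fun h => by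
    have : 0 < (Finset.univ.filter fun i => c' i = 1).card := Finset.card_pos.2 ⟨i, by simp [h]⟩
    obtain ⟨t, rfl⟩ := ho
    omega
  refine exists_hom_of_fam (by omega) ⟨k + 1, by ring⟩ h1 h2 (Equiv.refl _) _ fun v => ?_
  simp [Cfsg.quadFormPlus, hc]

theorem exists_hom_minus {k : ℕ} (hk : 1 ≤ k) (he : Even k) :
    ∃ φ : Equiv.Perm (Fin (2 * (2 * k + 1) + 2)) →*
      ↥(Cfsg.isometryGroup (ZMod 2) (Cfsg.quadFormMinus (2 * k) (ZMod 2) 1 1)), Function.Injective φ := by
  obtain ⟨w, hw, hfull⟩ := exists_start (2 * k + 1)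
  obtain ⟨w', c', h1, h2, h3⟩ := exists_normal_family _ w _ hw hfull (count_start k)
  obtain ⟨i0, hi0⟩ := Finset.card_eq_one.1 (show (Finset.univ.filter fun i => c' i = 1).card = 1 by
    obtain ⟨t, rfl⟩ := he
    omega)
  let τ : Fin (2 * k + 1) ≃ Fin (2 * k + 1) := Equiv.swap i0 (Fin.last _)
  have h1' := h1.reindex τ
  have hc : ∀ i : Fin (2 * k + 1), c' (τ i) = if i = Fin.last _ then 1 else 0 := by
    intro i
    have hm := Finset.ext_iff.1 hi0 (τ i)
    simp only [Finset.mem_filter, Finset.mem_univ, true_and, Finset.mem_singleton] at hm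
    split_ifs with h
    · exact hm.2 (by simp [τ, h])
    · refine (f2_cases _).resolve_right fun h' => h ?_
      have := hm.1 h'
      rw [← τ.eq_symm_apply] at this
      simpa [τ] using this
  have h2' : ∀ r : Fin (2 * (2 * k + 1) + 2) → ZMod 2, ∑ i, r i = 0 →
      (∀ x : Fin (2 * k + 1) ⊕ Fin (2 * k + 1), w' (x.map τ τ) ⬝ᵥ r = 0) → r = 0 ∨ r = fun _ => 1 := fun r hr hd =>
    h2 r hr fun x => by simpa [Sum.map_map] using hd (x.map τ.symm τ.symm)
  let σ : (Fin (2 * k) ⊕ Fin (2 * k)) ⊕ Fin 2 ≃ Fin (2 * k + 1) ⊕ Fin (2 * k + 1) :=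
    { toFun := Sum.elim (Sum.map Fin.castSucc Fin.castSucc)
        ![Sum.inl (Fin.last _), Sum.inr (Fin.last _)]
      invFun := Sum.elim (Fin.lastCases (Sum.inr 0) fun i => Sum.inl (Sum.inl i))
        (Fin.lastCases (Sum.inr 1) fun i => Sum.inl (Sum.inr i))
      left_inv := by
        rintro ((i | i) | j) <;> try simp
        fin_cases j <;> simp
      right_inv := by
        rintro (i | i) <;> induction i using Fin.lastCases <;> simp }
  refine exists_hom_of_fam (by omega) ⟨k + 1, by ring⟩ h1' h2' σ _ fun v => ?_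
  rw [Fin.sum_univ_castSucc]
  simp only [hc, σ, Equiv.coe_fn_symm_mk, Sum.elim_inl, Sum.elim_inr, Fin.lastCases_castSucc,
    Fin.lastCases_last, Fin.castSucc_ne_last, if_false, if_true, zero_mul, zero_add, one_mul,
    Cfsg.quadFormMinus]
  generalize v (Sum.inr 0) = a, v (Sum.inr 1) = b
  rw [show ∀ S : ZMod 2, S + (a ^ 2 + a * b + b ^ 2) = S + (a + b + a * b) from fun S => by
    revert S a b; decide]

end Cfsg.Agent.HeartPerm25.Family
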