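import Mathlib
import Cfsg.Agent.HeartPerm25.Basic

/-! The reduced permutation representation of `S_4` over `ZMod 3`, twisted by the sign. -/

set_option autoImplicit false
set_option maxRecDepth 100000

namespace Cfsg.Agent.HeartPerm25

open Matrix

/-- Basis of the sum-zero space in which minus the sum of squares is `x_0^2 + x y`. -/
def vecThree : Unit ⊕ (Fin 1 ⊕ Fin 1) → Fin 4 → ZMod 3 :=
  Sum.elim (fun _ => ![0, 1, -1, 0]) (Sum.elim (fun _ => ![1, 1, 1, 0]) fun _ => ![0, -1, -1, -1])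

/-- Coordinates in that basis: from the polar form. -/
def dualThree : Unit ⊕ (Fin 1 ⊕ Fin 1) → Fin 4 → ZMod 3 :=
  Sum.elim (fun _ => ![0, -1, 1, 0]) (Sum.elim (fun _ => ![0, -1, -1, -1] * fun _ => -2) fun _ => ![1, 1, 1, 0] * fun _ => -2)

/-- The representing matrix. -/
def repThree (π : Equiv.Perm (Fin 4)) : Matrix (Unit ⊕ (Fin 1 ⊕ Fin 1)) (Unit ⊕ (Fin 1 ⊕ Fin 1)) (ZMod 3) :=
  fun i j => ((Equiv.Perm.sign π : ℤ) : ZMod 3) * ∑ k, dualThree i (π k) * vecThree j k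

theorem repThree_mul : ∀ π τ : Equiv.Perm (Fin 4), repThree (π * τ) = repThree π * repThree τ := by
  decide +kernel

theorem repThree_one : repThree 1 = 1 := by decide +kernel

theorem repThree_eq_one : ∀ π : Equiv.Perm (Fin 4), repThree π = 1 → π = 1 := by decide +kernel

theorem repThree_det : ∀ π : Equiv.Perm (Fin 4), (repThree π).det = 1 := by decide +kernel

theorem repThree_isometry : ∀ (π : Equiv.Perm (Fin 4)) (v : Unit ⊕ (Fin 1 ⊕ Fin 1) → ZMod 3),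
    Cfsg.quadFormOdd 1 (ZMod 3) (repThree π *ᵥ v) = Cfsg.quadFormOdd 1 (ZMod 3) v := by
  decide +kernel

theorem exists_hom_three : ∃ f : Equiv.Perm (Fin 4) →*
    ↥(Cfsg.isometryGroup (ZMod 3) (Cfsg.quadFormOdd 1 (ZMod 3))), Function.Injective f ∧
      ∀ π, ((f π : Matrix.GeneralLinearGroup (Unit ⊕ (Fin 1 ⊕ Fin 1)) (ZMod 3)) :
        Matrix (Unit ⊕ (Fin 1 ⊕ Fin 1)) (Unit ⊕ (Fin 1 ⊕ Fin 1)) (ZMod 3)).det = 1 := by
  let u : Equiv.Perm (Fin 4) → Matrix.GeneralLinearGroup (Unit ⊕ (Fin 1 ⊕ Fin 1)) (ZMod 3) := fun π =>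
    ⟨repThree π, repThree π⁻¹, by rw [← repThree_mul, mul_inv_cancel, repThree_one],
      by rw [← repThree_mul, inv_mul_cancel, repThree_one]⟩
  let f : Equiv.Perm (Fin 4) →* ↥(Cfsg.isometryGroup (ZMod 3) (Cfsg.quadFormOdd 1 (ZMod 3))) :=
    MonoidHom.mk' (fun π => ⟨u π, mem_isometry_iff.2 (repThree_isometry π)⟩)
      fun π τ => Subtype.ext (Units.ext (repThree_mul π τ))
  refine ⟨f, (injective_iff_map_eq_one f).2 fun π hπ => repThree_eq_one π ?_, repThree_det⟩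
  exact congrArg (fun g : ↥(Cfsg.isometryGroup (ZMod 3) (Cfsg.quadFormOdd 1 (ZMod 3))) =>
    ((g : Matrix.GeneralLinearGroup (Unit ⊕ (Fin 1 ⊕ Fin 1)) (ZMod 3)) :
      Matrix (Unit ⊕ (Fin 1 ⊕ Fin 1)) (Unit ⊕ (Fin 1 ⊕ Fin 1)) (ZMod 3))) hπ

end Cfsg.Agent.HeartPerm25
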